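import Cfsg.Agent.H9.O5.Split
import Cfsg.Agent.H9.O5.Ten

/-!
# S3938, `PΩ⁺₈(5)`: the end game (helper9)
-/

set_option autoImplicit false
set_option linter.unusedSectionVars false

namespace Cfsg.Agent.H9.O5

open Module QuadraticMap Cfsg Cfsg.Geo
open Cfsg.Agent.LieClassical.OrthCore Cfsg.Agent.LieClassical.OrthFinite
open Cfsg.Agent.LieClassical.OrthTrans (Good)
open Cfsg.Agent.H951 (fx cm mem_fx mem_cm)
open Cfsg.Agent.H884.El (lin)
open Cfsg.Agent.H424.O8L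
open scoped MatrixGroups Matrix Pointwise

variable {ι : Type} [Fintype ι] [DecidableEq ι] {F : Type} [Field F] [Fintype F] {Q : QuadraticForm F (ι → F)}
  {x t : GL ι F}

theorem ge_eq (g : GL ι F) (v : ι → F) : glEquiv ι F g v = lin g v := by
  rw [lin, Matrix.toLin'_apply]; rfl

theorem ge_inj {g k : GL ι F} (h : glEquiv ι F g = glEquiv ι F k) : g = k := (glEquiv ι F).injective h

section basic

variable (h : Cf Q x t 7) (hF : Nat.card F = 5)
include h hF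

theorem dt_of {J : Module.End F (ι → F)} {c d : F} (f : Fj Q x t J c d) :
    Dt Q (glEquiv ι F x) (fx (lin x)) (cm (lin x)) where
  card := hF
  nd := Cfsg.Agent.H377.nondegenerate_of_nondeg h.good.nondeg
  iso v := by rw [ge_eq, q_lin h.x_mem]
  pow v := by
    have h1 := congrArg (fun g => glEquiv ι F g v) h.x_pow
    simp only [map_pow, map_one] at h1
    exact h1
  compl := h.compl
  dimW := h.W_dim
  perp w hw u hu := by rw [polar_comm, h.orth hu hw]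
  XW w hw := by rw [ge_eq, mem_fx.1 hw]
  XU u hu := by rw [ge_eq]; exact h.x_inv hu
  fixU u hu hf := by
    rw [ge_eq] at hf
    have h1 : u ∈ fx (lin x) ⊓ cm (lin x) := ⟨mem_fx.2 hf, hu⟩
    rw [h.compl.inf_eq_bot] at h1
    exact (Submodule.mem_bot F).1 h1
  irr K hK hinv hd := by
    rcases h.irr K hK (fun v hv => by rw [← ge_eq]; exact hinv v hv) with h1 | h1
    · exact h1
    · rw [h1, h.x_dim] at hd
      omega
  aniso w hw hQ := by
    by_contra h0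
    exact h.aniso f hw h0 hQ
  ns := h.exists_ns

theorem rotG {J : Module.End F (ι → F)} {c d : F} (f : Fj Q x t J c d) {g : GL ι F} (hg : g ∈ omegaGL ⇑Q)
    (g3 : g ^ 3 = 1) (hU : ∀ v ∈ cm (lin x), lin g v = v) (hne : g ≠ 1) :
    Rot3 Q (glEquiv ι F g) (fx (lin x)) := by
  refine (dt_of h hF f).rot (fun v => by rw [ge_eq, q_lin hg]) (fun v => ?_) (fun u hu => by rw [ge_eq, hU u hu]) ?_
  · have h1 := congrArg (fun g => glEquiv ι F g v) g3
    simp only [map_pow, map_one] at h1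
    exact h1
  · by_contra hcon
    push Not at hcon
    apply hne
    apply l_ext
    intro v
    rw [← ge_eq, hcon, l_one]

end basic

/-- central elements are scalars -/
theorem sc_of (hG : Good Q) {z : Omega F ⇑Q} (hz : pj Q z = 1) : Sc (glEquiv ι F (inc ⇑Q z)) := by
  have h1 : z ∈ Subgroup.center (Omega F ⇑Q) := by
    rw [← QuotientGroup.ker_mk' (Subgroup.center (Omega F ⇑Q))]
    exact hz
  rcases (center_iff hG z).1 h1 with h2 | h2
  · exact ⟨1, fun v => by rw [h2, map_one, one_smul]; rfl⟩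
  · exact ⟨-1, fun v => by rw [h2, ge_eq, l_neg, l_one, neg_one_smul]⟩

theorem cm_of (hG : Good Q) {u v : Omega F ⇑Q} (h : pj Q (u * v) = pj Q (v * u)) :
    Cm (glEquiv ι F (inc ⇑Q u)) (glEquiv ι F (inc ⇑Q v)) := by
  rcases mk_eq hG h with h2 | h2
  · refine ⟨1, fun w => ?_⟩
    rw [one_smul, ← LinearEquiv.mul_apply, ← LinearEquiv.mul_apply, ← map_mul, ← map_mul, ← map_mul, ← map_mul, h2]
  · refine ⟨-1, fun w => ?_⟩
    rw [neg_one_smul, ← LinearEquiv.mul_apply, ← LinearEquiv.mul_apply, ← map_mul, ← map_mul, ← map_mul, ← map_mul, h2,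
      ge_eq, ge_eq, l_neg, neg_neg]

/-- elements of order three with the same image are equal -/
theorem eq_of_pj (hG : Good Q) {u v : Omega F ⇑Q} (hu : (inc ⇑Q u) ^ 3 = 1) (hv : (inc ⇑Q v) ^ 3 = 1)
    (h : pj Q u = pj Q v) : u = v := by
  apply inc_inj
  rcases mk_eq hG h with h2 | h2
  · exact h2.symm
  · have h3 : (-1 : GL ι F) = 1 := by
      rw [h2, Odd.neg_pow (by decide), hu] at hv
      exact hv
    rw [h2, neg_eq_neg_one_mul, h3, one_mul]

section end_game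

variable (h : Cf Q x t 7) (hF : Nat.card F = 5) (t3 : t ^ 3 = 1)
include h hF t3

/-- no fixed conjugate of `N (F[J])` -/
theorem noK {J : Module.End F (ι → F)} {c d : F} (f : Fj Q x t J c d) {K : Subgroup (POmega F ⇑Q)}
    (m : ∀ y : Omega F ⇑Q, pj Q y ∈ K ↔ Sm J c (inc ⇑Q y)) {a : MulAut (POmega F ⇑Q)} {t' A y x' : Omega F ⇑Q}
    (ht' : inc ⇑Q t' = t) (hx' : inc ⇑Q x' = x) (ha : a (pj Q t') = pj Q A) (hA : (inc ⇑Q A) ^ 3 = 1)
    (hy : y⁻¹ * t' * y = t' ∨ y⁻¹ * t' * y = t'⁻¹)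
    (hJ : NoJ (glEquiv ι F (inc ⇑Q A)) (glEquiv ι F (inc ⇑Q (y * x' * y⁻¹)))) :
    a • (H424.Spr.c (pj Q y) • K) ≠ H424.Spr.c (pj Q y) • K := by
  intro hK
  have ht : pj Q t' ∈ H424.Spr.c (pj Q y) • K := by
    rw [Subgroup.mem_pointwise_smul_iff_inv_smul_mem, ← map_inv]
    change (pj Q y)⁻¹ * pj Q t' * (pj Q y)⁻¹⁻¹ ∈ K
    rw [inv_inv, ← map_inv, ← map_mul, ← map_mul]
    have hJt : pj Q t' ∈ K := by
      rw [m, ht']
      exact Or.inl fun v => (f.ct v).symm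
    rcases hy with h1 | h1
    · rw [h1]; exact hJt
    · rw [h1, map_inv]; exact K.inv_mem hJt
  have h2 : a (pj Q t') ∈ H424.Spr.c (pj Q y) • K := by
    rw [← hK]
    exact H424.Spr.mem_smul a ht
  rw [ha, Subgroup.mem_pointwise_smul_iff_inv_smul_mem, ← map_inv] at h2
  change (pj Q y)⁻¹ * pj Q A * (pj Q y)⁻¹⁻¹ ∈ K at h2
  rw [inv_inv, ← map_inv, ← map_mul, ← map_mul, m] at h2
  set M : GL ι F := inc ⇑Q (y⁻¹ * A * y) with hM
  have hM3 : M ^ 3 = 1 := by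
    have e : y⁻¹ * A * y = y⁻¹ * A * y⁻¹⁻¹ := by rw [inv_inv]
    rw [hM, e, ← map_pow, conj_pow, map_mul, map_mul, map_pow, hA, mul_one, ← map_mul, mul_inv_cancel, map_one]
  have hMv : ∀ v, lin M (lin M (lin M v)) = v := by
    intro v
    rw [← l_mul, ← l_mul]
    rw [← pow_three' M, hM3, l_one]
  have hcomm : ∀ v, lin M (J v) = J (lin M v) := by
    rcases h2 with h3 | h3
    · exact h3
    · have h4 : ∀ v, lin M (lin M (J v)) = J (lin M (lin M v)) := by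
        intro v
        rw [h3, map_sub, map_smul, h3]
        abel
      intro v
      have h5 := h4 (lin M (lin M v))
      rw [hMv] at h5
      have h6 := h4 v
      rw [← h6, hMv] at h5
      exact h5
  -- the conjugate of `J`
  obtain ⟨J₁, hJ₁⟩ : ∃ J₁ : Module.End F (ι → F), ∀ v, J₁ v = lin (inc ⇑Q y) (J (lin (inc ⇑Q y)⁻¹ v)) :=
    ⟨(lin (inc ⇑Q y)).comp (J.comp (lin (inc ⇑Q y)⁻¹)), fun v => rfl⟩
  refine hJ J₁ c d (fun v => ?_) f.irr (fun v => ?_) (fun v => ?_)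
  · rw [hJ₁, hJ₁, l_inv, f.sq, map_sub, map_smul, map_smul, l_inv']
  · rw [ge_eq, ge_eq, hJ₁, hJ₁, map_mul, map_mul, map_inv, hx', l_mul, l_mul, l_mul, l_mul, l_inv, l_inv, f.cx]
  · have e : inc ⇑Q A = inc ⇑Q y * M * (inc ⇑Q y)⁻¹ := by
      rw [hM, ← map_inv, ← map_mul, ← map_mul]
      congr 1
      group
    rw [ge_eq, ge_eq, hJ₁, hJ₁, e, l_mul, l_mul, l_mul, l_mul, l_inv, l_inv, hcomm]

theorem ord_x {x' : Omega F ⇑Q} (hx' : inc ⇑Q x' = x) : orderOf (pj Q x') = 7 := by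
  have : Fact (Nat.Prime 7) := ⟨by norm_num⟩
  apply orderOf_eq_prime
  · have h1 : x' ^ 7 = 1 := by
      apply inc_inj
      rw [map_pow, hx', h.x_pow, map_one]
    rw [← map_pow, h1, map_one]
  · intro h1
    have h2 : x' ∈ Subgroup.center (Omega F ⇑Q) := by
      rw [← QuotientGroup.ker_mk' (Subgroup.center (Omega F ⇑Q))]
      exact h1
    have h3 : x = 1 := by
      rcases (center_iff h.good x').1 h2 with h3 | h3
      · rw [← hx', h3]
      · have h4 := h.x_pow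
        rw [← hx', h3, Odd.neg_pow (by decide), one_pow] at h4
        rw [← hx', h3, h4]
    have h4 := h.x_dim
    have h5 : cm (lin x) = ⊥ := by
      rw [Submodule.eq_bot_iff]
      intro v hv
      obtain ⟨w, rfl⟩ := mem_cm.1 hv
      rw [h3, l_one, sub_self]
    rw [h5, finrank_bot] at h4
    omega

theorem ord_t {t' : Omega F ⇑Q} (ht' : inc ⇑Q t' = t) : orderOf (pj Q t') = 3 := by
  have : Fact (Nat.Prime 3) := ⟨by norm_num⟩
  apply orderOf_eq_prime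
  · have h1 : t' ^ 3 = 1 := by
      apply inc_inj
      rw [map_pow, ht', t3, map_one]
    rw [← map_pow, h1, map_one]
  · intro h1
    have h2 : t' ∈ Subgroup.center (Omega F ⇑Q) := by
      rw [← QuotientGroup.ker_mk' (Subgroup.center (Omega F ⇑Q))]
      exact h1
    apply h.t_ne
    rcases (center_iff h.good t').1 h2 with h3 | h3
    · rw [← ht', h3]
    · have h4 := t3
      rw [← ht', h3, Odd.neg_pow (by decide), one_pow] at h4
      rw [← ht', h3, h4]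

theorem comm_xt : x * t = t * x := by
  apply l_ext
  intro v
  obtain ⟨w, hw, u, hu, rfl⟩ := h.decomp v
  have e1 : lin t w ∈ fx (lin x) := by rw [← h.t_W]; exact ⟨w, hw, rfl⟩
  rw [l_mul, l_mul, map_add, map_add, map_add, map_add, mem_fx.1 e1, mem_fx.1 hw, h.t_fix u hu, h.t_fix _ (h.x_inv hu)]

set_option maxHeartbeats 1600000 in
/-- no invariant `A₁₀` -/
theorem noT {a : MulAut (POmega F ⇑Q)} {t' A y x' : Omega F ⇑Q}
    (ht' : inc ⇑Q t' = t) (hx' : inc ⇑Q x' = x) (ha : a (pj Q t') = pj Q A)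
    (hy : y * t' * y⁻¹ = t' ∨ y * t' * y⁻¹ = t'⁻¹)
    (hR : ¬ (Rel1 (glEquiv ι F (inc ⇑Q A)) (glEquiv ι F t) (glEquiv ι F (inc ⇑Q (y * x' * y⁻¹))) ∧
      Rel2 (glEquiv ι F (inc ⇑Q A)) (glEquiv ι F (inc ⇑Q (y * x' * y⁻¹)))))
    {K : Subgroup (POmega F ⇑Q)} (hT : T10 K) (hxK : H424.Spr.c (pj Q y) (pj Q x') ∈ K)
    (htK : H424.Spr.c (pj Q y) (pj Q t') ∈ K) : a • K ≠ K := by
  intro haK
  apply hR
  set x₀ : Omega F ⇑Q := y * x' * y⁻¹ with hx₀
  have e1 : H424.Spr.c (pj Q y) (pj Q x') = pj Q x₀ := by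
    rw [hx₀, map_mul, map_mul, map_inv]; rfl
  have e2 : H424.Spr.c (pj Q y) (pj Q t') = pj Q (y * t' * y⁻¹) := by
    rw [map_mul, map_mul, map_inv]; rfl
  rw [e1] at hxK
  rw [e2] at htK
  have htK' : pj Q t' ∈ K := by
    rcases hy with h1 | h1
    · rwa [h1] at htK
    · rw [h1, map_inv] at htK
      exact (inv_mem_iff).1 htK
  have hcomm : t' * x₀ = x₀ * t' := by
    have h1 : (y * t' * y⁻¹) * x₀ = x₀ * (y * t' * y⁻¹) := by
      have h2 : t' * x' = x' * t' := by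
        apply inc_inj
        rw [map_mul, map_mul, ht', hx', comm_xt h hF t3]
      rw [hx₀]
      calc y * t' * y⁻¹ * (y * x' * y⁻¹) = y * (t' * x') * y⁻¹ := by group
        _ = y * (x' * t') * y⁻¹ := by rw [h2]
        _ = _ := by group
    rcases hy with h2 | h2
    · rwa [h2] at h1
    · rw [h2] at h1
      have h3 : Commute t'⁻¹ x₀ := h1
      exact (h3.inv_left).eq ▸ by simp
  have o1 : orderOf (pj Q x₀) = 7 := by
    rw [← e1]
    exact (MulEquiv.orderOf_eq (MulAut.conj (pj Q y)) _).trans (ord_x h hF t3 hx')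
  have o2 : orderOf (pj Q t') = 3 := ord_t h hF t3 ht'
  have c1 : pj Q t' * pj Q x₀ = pj Q x₀ * pj Q t' := by rw [← map_mul, hcomm, map_mul]
  have mem : ∀ {k : POmega F ⇑Q}, k ∈ K → a k ∈ K := by
    intro k hk
    rw [← haK]
    exact H424.Spr.mem_smul a hk
  have hxa := mem hxK
  have hta := mem htK'
  have c2 : a (pj Q t') * a (pj Q x₀) = a (pj Q x₀) * a (pj Q t') := by rw [← map_mul, c1, map_mul]
  have o3 : orderOf (a (pj Q x₀)) = 7 := (MulEquiv.orderOf_eq a _).trans o1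
  have o4 : orderOf (a (pj Q t')) = 3 := (MulEquiv.orderOf_eq a _).trans o2
  rw [ha] at hta c2 o4
  generalize a (pj Q x₀) = z at hxa c2 o3
  constructor
  · rcases hT.rel (x := ⟨pj Q x₀, hxK⟩) (t := ⟨pj Q t', htK'⟩) (x' := ⟨z, hxa⟩) (t' := ⟨pj Q A, hta⟩)
      (by rw [Subgroup.orderOf_mk]; exact o1) (by rw [Subgroup.orderOf_mk]; exact o2) (Subtype.ext c1)
      (by rw [Subgroup.orderOf_mk]; exact o3) (by rw [Subgroup.orderOf_mk]; exact o4) (Subtype.ext c2)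
      with h1 | h1 | h1 | h1
    · left
      have h2 : pj Q t' * pj Q A = pj Q A * pj Q t' := congrArg Subtype.val h1
      rw [← map_mul, ← map_mul] at h2
      have h3 := cm_of h.good h2
      rwa [ht'] at h3
    · right; left
      have h2 : (pj Q A * (pj Q x₀ * pj Q A * (pj Q x₀)⁻¹)) ^ 2 = 1 := congrArg Subtype.val h1
      rw [← map_inv, ← map_mul, ← map_mul, ← map_mul, ← map_pow] at h2
      have h3 := sc_of h.good h2
      rwa [map_pow, map_mul, map_mul, map_mul, map_inv, map_pow, map_mul, map_mul, map_mul, map_inv] at h3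
    · right; right; left
      have h2 : (pj Q A * (pj Q x₀ * pj Q A * (pj Q x₀)⁻¹)) ^ 5 = 1 := congrArg Subtype.val h1
      rw [← map_inv, ← map_mul, ← map_mul, ← map_mul, ← map_pow] at h2
      have h3 := sc_of h.good h2
      rwa [map_pow, map_mul, map_mul, map_mul, map_inv, map_pow, map_mul, map_mul, map_mul, map_inv] at h3
    · right; right; right
      have h2 : (pj Q A * (pj Q x₀ ^ 2 * pj Q A * (pj Q x₀ ^ 2)⁻¹)) ^ 5 = 1 := congrArg Subtype.val h1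
      rw [← map_pow, ← map_inv, ← map_mul, ← map_mul, ← map_mul, ← map_pow] at h2
      have h3 := sc_of h.good h2
      rwa [map_pow, map_mul, map_mul, map_mul, map_inv, map_pow, map_pow, map_mul, map_mul, map_mul, map_inv,
        map_pow] at h3
  · have hz : pj Q x₀ ^ 2 * z * (pj Q x₀ ^ 2)⁻¹ ∈ K :=
      K.mul_mem (K.mul_mem (K.pow_mem hxK 2) hxa) (K.inv_mem (K.pow_mem hxK 2))
    have hA2 : pj Q x₀ ^ 2 * pj Q A * (pj Q x₀ ^ 2)⁻¹ ∈ K :=
      K.mul_mem (K.mul_mem (K.pow_mem hxK 2) hta) (K.inv_mem (K.pow_mem hxK 2))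
    have oc : ∀ g k : POmega F ⇑Q, orderOf (g * k * g⁻¹) = orderOf k := fun g k =>
      MulEquiv.orderOf_eq (MulAut.conj g) k
    have o5 : orderOf (pj Q x₀ ^ 2 * z * (pj Q x₀ ^ 2)⁻¹) = 7 := by rw [oc, o3]
    have o6 : orderOf (pj Q x₀ ^ 2 * pj Q A * (pj Q x₀ ^ 2)⁻¹) = 3 := by rw [oc, o4]
    have c3 : pj Q x₀ ^ 2 * pj Q A * (pj Q x₀ ^ 2)⁻¹ * (pj Q x₀ ^ 2 * z * (pj Q x₀ ^ 2)⁻¹) =
        pj Q x₀ ^ 2 * z * (pj Q x₀ ^ 2)⁻¹ * (pj Q x₀ ^ 2 * pj Q A * (pj Q x₀ ^ 2)⁻¹) := by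
      calc _ = pj Q x₀ ^ 2 * (pj Q A * z) * (pj Q x₀ ^ 2)⁻¹ := by group
        _ = pj Q x₀ ^ 2 * (z * pj Q A) * (pj Q x₀ ^ 2)⁻¹ := by rw [c2]
        _ = _ := by group
    rcases hT.pair (x := ⟨z, hxa⟩) (t := ⟨pj Q A, hta⟩) (x' := ⟨_, hz⟩) (t' := ⟨_, hA2⟩)
      (by rw [Subgroup.orderOf_mk]; exact o3) (by rw [Subgroup.orderOf_mk]; exact o4) (Subtype.ext c2)
      (by rw [Subgroup.orderOf_mk]; exact o5) (by rw [Subgroup.orderOf_mk]; exact o6) (Subtype.ext c3)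
      with h1 | h1 | h1 | h1
    · left
      have h2 : pj Q A * (pj Q x₀ ^ 2 * pj Q A * (pj Q x₀ ^ 2)⁻¹) =
        (pj Q x₀ ^ 2 * pj Q A * (pj Q x₀ ^ 2)⁻¹) * pj Q A := congrArg Subtype.val h1
      rw [← map_pow, ← map_inv, ← map_mul, ← map_mul, ← map_mul, ← map_mul] at h2
      have h3 := cm_of h.good h2
      have e : glEquiv ι F (inc ⇑Q (x₀ ^ 2 * A * (x₀ ^ 2)⁻¹)) = glEquiv ι F (inc ⇑Q x₀) ^ 2 *
          glEquiv ι F (inc ⇑Q A) * (glEquiv ι F (inc ⇑Q x₀) ^ 2)⁻¹ := by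
        rw [map_mul, map_mul, map_inv, map_pow, map_mul, map_mul, map_inv, map_pow, map_pow]
      rw [e] at h3
      exact h3
    · right; left
      have h2 : (pj Q A * (pj Q x₀ ^ 2 * pj Q A * (pj Q x₀ ^ 2)⁻¹)) ^ 5 = 1 := congrArg Subtype.val h1
      rw [← map_pow, ← map_inv, ← map_mul, ← map_mul, ← map_mul, ← map_pow] at h2
      have h3 := sc_of h.good h2
      rwa [map_pow, map_mul, map_mul, map_mul, map_inv, map_pow, map_pow, map_mul, map_mul, map_mul, map_inv,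
        map_pow] at h3
    · right; right; left
      have h2 : (pj Q A * (pj Q x₀ ^ 2 * pj Q A * (pj Q x₀ ^ 2)⁻¹)) ^ 2 = 1 := congrArg Subtype.val h1
      rw [← map_pow, ← map_inv, ← map_mul, ← map_mul, ← map_mul, ← map_pow] at h2
      have h3 := sc_of h.good h2
      rwa [map_pow, map_mul, map_mul, map_mul, map_inv, map_pow, map_pow, map_mul, map_mul, map_mul, map_inv,
        map_pow] at h3
    · right; right; right
      have h2 : (pj Q A * (pj Q x₀ ^ 2 * pj Q A * (pj Q x₀ ^ 2)⁻¹)⁻¹) ^ 2 = 1 := congrArg Subtype.val h1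
      rw [← map_pow, ← map_inv, ← map_mul, ← map_mul, ← map_inv, ← map_mul, ← map_pow] at h2
      have h3 := sc_of h.good h2
      rwa [map_pow, map_mul, map_inv, map_mul, map_mul, map_inv, map_pow, map_pow, map_mul, map_inv, map_mul, map_mul,
        map_inv, map_pow] at h3

set_option maxHeartbeats 1600000 in
/-- the image of `t` under an automorphism which preserves the class of the stabiliser of `W` -/
theorem exists_A {J : Module.End F (ι → F)} {c d : F} (f : Fj Q x t J c d) {K₁ : Subgroup (POmega F ⇑Q)}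
    (m₁ : ∀ y : Omega F ⇑Q, pj Q y ∈ K₁ ↔ (fx (lin x)).map (lin (inc ⇑Q y)) = fx (lin x))
    (a : MulAut (POmega F ⇑Q)) {Y t' : Omega F ⇑Q} (ht' : inc ⇑Q t' = t)
    (h1 : a • K₁ = H424.Spr.c (pj Q Y) • K₁) :
    ∃ A : Omega F ⇑Q, a (pj Q t') = pj Q A ∧ (inc ⇑Q A) ^ 3 = 1 ∧
      Rot3 Q (glEquiv ι F (inc ⇑Q A)) ((fx (lin x)).map (glEquiv ι F (inc ⇑Q Y) : (ι → F) →ₗ[F] (ι → F))) := by
  set b : MulAut (POmega F ⇑Q) := (H424.Spr.c (pj Q Y))⁻¹ * a with hb
  have hbK : b • K₁ = K₁ := by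
    rw [hb, mul_smul, h1]
    exact inv_smul_smul _ _
  have hbK' : b⁻¹ • K₁ = K₁ := by
    conv_lhs => rw [← hbK]
    exact inv_smul_smul _ _
  have ht1 : pj Q t' ∈ K₁ := by
    rw [m₁, ht']
    exact h.t_W
  have hτ1 : b (pj Q t') ∈ K₁ := by
    have := H424.Spr.mem_smul b ht1
    rwa [hbK] at this
  have hb3 : (b (pj Q t')) ^ 3 = 1 := by
    have h2 : t' ^ 3 = 1 := by
      apply inc_inj
      rw [map_pow, ht', t3, map_one]
    rw [← map_pow, ← map_pow, h2, map_one, map_one]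
  obtain ⟨g, hg, hg3, z, hz, hgz⟩ := exists_lift h.good (by decide : Odd 3) hb3
  obtain ⟨τ, rfl⟩ := exists_inc hg
  have hτ : pj Q τ = b (pj Q t') := by
    rw [← hz]
    have h2 : τ⁻¹ * z ∈ Subgroup.center (Omega F ⇑Q) := by
      rw [center_iff h.good, map_mul, map_inv]
      rcases hgz with h3 | h3
      · left
        rw [← h3, inv_mul_cancel]
      · right
        have h4 : inc ⇑Q z = - inc ⇑Q τ := by rw [h3, neg_neg]
        rw [h4, mul_neg, inv_mul_cancel]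
    have h3 : pj Q (τ⁻¹ * z) = 1 := by
      rw [← MonoidHom.mem_ker, QuotientGroup.ker_mk']
      exact h2
    rw [map_mul, map_inv, inv_mul_eq_one] at h3
    exact h3
  have hτW : (fx (lin x)).map (lin (inc ⇑Q τ)) = fx (lin x) := by
    rw [← m₁, hτ]
    exact hτ1
  -- the scalar
  obtain ⟨l, hl⟩ := h.scal f (inc_mem τ) hτW (by
    intro g hg hgW
    obtain ⟨g', rfl⟩ := exists_inc hg
    obtain ⟨x', hx'⟩ := exists_inc h.x_mem
    have hz : inc ⇑Q (g'⁻¹ * x' * g') = (inc ⇑Q g')⁻¹ * x * inc ⇑Q g' := by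
      rw [map_mul, map_mul, map_inv, hx']
    have hzN : (inc ⇑Q (g'⁻¹ * x' * g')) ^ 7 = 1 := by
      have e : (inc ⇑Q g')⁻¹ * x * inc ⇑Q g' = (inc ⇑Q g')⁻¹ * x * ((inc ⇑Q g')⁻¹)⁻¹ := by rw [inv_inv]
      rw [hz, e, conj_pow, h.x_pow, mul_one, mul_inv_cancel]
    have hzN' : (g'⁻¹ * x' * g') ^ 7 = 1 := by
      apply inc_inj (f := ⇑Q)
      rw [map_pow, hzN, map_one]
    have hzW : (fx (lin x)).map (lin ((inc ⇑Q g')⁻¹ * x * inc ⇑Q g')) = fx (lin x) := by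
      have e : ∀ k k' : GL ι F, (fx (lin x)).map (lin (k * k')) = ((fx (lin x)).map (lin k')).map (lin k) := by
        intro k k'
        rw [← Submodule.map_comp]
        congr 1
        exact LinearMap.ext fun v => l_mul k k' v
      rw [e, hgW, e]
      have e2 : (fx (lin x)).map (lin x) = fx (lin x) := by
        apply le_antisymm
        · rintro _ ⟨v, hv, rfl⟩
          rw [mem_fx.1 hv]
          exact hv
        · intro v hv
          exact ⟨v, hv, mem_fx.1 hv⟩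
      rw [e2]
      exact h.inv_mem hgW
    have hzK : pj Q (g'⁻¹ * x' * g') ∈ K₁ := by
      rw [m₁, hz]
      exact hzW
    have h3 : b⁻¹ (pj Q (g'⁻¹ * x' * g')) ∈ K₁ := by
      have := H424.Spr.mem_smul b⁻¹ hzK
      rwa [hbK'] at this
    have h4 : (b⁻¹ (pj Q (g'⁻¹ * x' * g'))) ^ 7 = 1 := by
      rw [← map_pow, ← map_pow, hzN', map_one, map_one]
    have h5 := congrArg b (h.one_comm m₁ ht' h3 h4)
    rw [map_mul b, map_mul b, MulAut.apply_inv_self, ← hτ] at h5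
    rw [← hz]
    exact exact_comm h.good h.odd hzN h5.symm)
  have hl1 : l = 1 := by
    obtain ⟨u₀, hu₀, hQ₀⟩ := h.exists_ns
    have hu0 : u₀ ≠ 0 := by
      rintro rfl
      exact hQ₀ (QuadraticMap.map_zero Q)
    have h2 : lin ((inc ⇑Q τ) ^ 3) u₀ = u₀ := by rw [hg3, l_one]
    rw [pow_three', l_mul, l_mul, hl u₀ hu₀, map_smul, map_smul, hl u₀ hu₀, map_smul, hl u₀ hu₀, smul_smul,
      smul_smul] at h2
    have h3 : (l * l * l - 1) • u₀ = 0 := by
      rw [sub_smul, one_smul, mul_assoc] 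
      rw [← mul_assoc, h2, sub_self]
    exact cube_one hF (sub_eq_zero.1 ((smul_eq_zero.1 h3).resolve_right hu0))
  have hτne : inc ⇑Q τ ≠ 1 := by
    intro h2
    have h3 : τ = 1 := inc_inj (by rw [h2, map_one])
    rw [h3, map_one] at hτ
    have h4 : pj Q t' = 1 := by
      apply b.injective
      rw [← hτ, map_one]
    have h5 := ord_t h hF t3 ht'
    rw [h4, orderOf_one] at h5
    omega
  have hrot : Rot3 Q (glEquiv ι F (inc ⇑Q τ)) (fx (lin x)) :=
    rotG h hF f (inc_mem τ) hg3 (fun v hv => by rw [hl v hv, hl1, one_smul]) hτne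
  refine ⟨Y * τ * Y⁻¹, ?_, ?_, ?_⟩
  · have h3 : a = H424.Spr.c (pj Q Y) * b := by rw [hb, mul_inv_cancel_left]
    rw [h3, MulAut.mul_apply, ← hτ, map_mul, map_mul, map_inv]
    rfl
  · rw [map_mul, map_mul, map_inv, conj_pow, hg3, mul_one, mul_inv_cancel]
  · rw [map_mul, map_mul, map_inv, map_mul, map_mul, map_inv]
    exact hrot.conj fun v => by rw [ge_eq, q_lin (inc_mem Y)]

set_option maxHeartbeats 1600000 in
/-- **the end game** -/
theorem mid {J J' : Module.End F (ι → F)} {c d : F} (f : Fj Q x t J c d) (f' : Fj Q x t J' c d)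
    {K₁ K₂ K₃ : Subgroup (POmega F ⇑Q)}
    (m₁ : ∀ y : Omega F ⇑Q, pj Q y ∈ K₁ ↔ (fx (lin x)).map (lin (inc ⇑Q y)) = fx (lin x))
    (m₂ : ∀ y : Omega F ⇑Q, pj Q y ∈ K₂ ↔ Sm J c (inc ⇑Q y))
    (m₃ : ∀ y : Omega F ⇑Q, pj Q y ∈ K₃ ↔ Sm J' c (inc ⇑Q y)) (a : MulAut (POmega F ⇑Q)) {x' t' : Omega F ⇑Q}
    (hx' : inc ⇑Q x' = x) (ht' : inc ⇑Q t' = t) (h1 : ∃ y₀ : POmega F ⇑Q, a • K₁ = H424.Spr.c y₀ • K₁) (hne : a • K₁ ≠ K₁) :
    ∃ y ∈ K₁, a • (H424.Spr.c y • K₂) ≠ H424.Spr.c y • K₂ ∧ a • (H424.Spr.c y • K₃) ≠ H424.Spr.c y • K₃ ∧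
      ∀ K : Subgroup (POmega F ⇑Q), T10 K → H424.Spr.c y (pj Q x') ∈ K → H424.Spr.c y (pj Q t') ∈ K → a • K ≠ K := by
  obtain ⟨y₀, h1⟩ := h1
  obtain ⟨Y, rfl⟩ := QuotientGroup.mk'_surjective _ y₀
  obtain ⟨A, hA, hA3, aR⟩ := exists_A h hF t3 f m₁ a ht' h1
  have hd := dt_of h hF f
  have tR : Rot3 Q (glEquiv ι F t) (fx (lin x)) := rotG h hF f h.t_mem t3 h.t_fix h.t_ne
  have hP : (fx (lin x)).map (glEquiv ι F (inc ⇑Q Y) : (ι → F) →ₗ[F] (ι → F)) ≠ fx (lin x) := by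
    intro h2
    apply hne
    rw [h1]
    apply H424.Spr.c_smul_self
    change pj Q Y ∈ K₁
    rw [m₁]
    conv_rhs => rw [← h2]
    congr 1
  obtain ⟨R, hR, hRW, hRX⟩ := geo hd aR (by
    rw [Module.finrank_fintype_fun_eq_card, h.dim]
    norm_num) tR hP
  obtain ⟨y, S, hS, hSU, hy⟩ := split hd hR
  -- the conjugates
  have eX : glEquiv ι F (inc ⇑Q (y * x' * y⁻¹)) = (R.symm.trans (glEquiv ι F x)).trans R := by
    have h2 : S * glEquiv ι F x = glEquiv ι F x * S := hd.commX hS hSU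
    have h3 : glEquiv ι F (inc ⇑Q (y * x' * y⁻¹)) = R * S * glEquiv ι F x * (R * S)⁻¹ := by
      rw [map_mul, map_mul, map_inv, map_mul, map_mul, map_inv, hy, hx']
    have h4 : R * S * glEquiv ι F x * (R * S)⁻¹ = R * glEquiv ι F x * R⁻¹ := by
      rw [mul_assoc R S, h2]
      group
    rw [h3, h4]
    rfl
  have eT : y * t' * y⁻¹ = t' ∨ y * t' * y⁻¹ = t'⁻¹ := by
    have h2 : R * glEquiv ι F t = glEquiv ι F t * R := hd.commT hR hRW tR
    have h2' : R * (glEquiv ι F t)⁻¹ = (glEquiv ι F t)⁻¹ * R := (show Commute R (glEquiv ι F t) from h2).inv_right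
    have h3 : glEquiv ι F (inc ⇑Q (y * t' * y⁻¹)) = R * (S * glEquiv ι F t * S⁻¹) * R⁻¹ := by
      rw [map_mul, map_mul, map_inv, map_mul, map_mul, map_inv, hy, ht']
      group
    rcases hd.conjT hS hSU tR with h4 | h4
    · left
      apply inc_inj (f := ⇑Q)
      apply ge_inj
      rw [h3, h4, h2, mul_inv_cancel_right, ht']
    · right
      apply inc_inj (f := ⇑Q)
      apply ge_inj
      rw [h3, h4, h2', mul_inv_cancel_right, map_inv, map_inv, ht']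
  have eT' : y⁻¹ * t' * y = t' ∨ y⁻¹ * t' * y = t'⁻¹ := by
    rcases eT with h2 | h2
    · left
      conv_lhs => rw [← h2]
      group
    · right
      have h3 : y * t'⁻¹ * y⁻¹ = t' := by
        have : y * t'⁻¹ * y⁻¹ = (y * t' * y⁻¹)⁻¹ := by group
        rw [this, h2, inv_inv]
      conv_lhs => rw [← h3]
      group
  obtain ⟨g1, g2⟩ := hRX _ eX
  refine ⟨pj Q y, ?_, ?_, ?_, ?_⟩
  · rw [m₁]
    apply Submodule.eq_of_le_of_finrank_eq
    · rintro _ ⟨w, hw, rfl⟩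
      have h2 : lin (inc ⇑Q y) w = R (S w) := by rw [← ge_eq, hy]; rfl
      have h3 := hd.preW hS hSU hw
      rw [h2, hRW _ h3]
      exact h3
    · exact l_finrank _ _
  · exact noK h hF t3 f m₂ ht' hx' hA hA3 eT' g1
  · exact noK h hF t3 f' m₃ ht' hx' hA hA3 eT' g1
  · intro K hK hxK htK
    exact noT h hF t3 ht' hx' hA eT g2 hK hxK htK

/-- the stabiliser of `W` is the normaliser of `⟨t⟩` -/
theorem stab_iff {J : Module.End F (ι → F)} {c d : F} (f : Fj Q x t J c d) {y t' : Omega F ⇑Q}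
    (ht' : inc ⇑Q t' = t) : (fx (lin x)).map (lin (inc ⇑Q y)) = fx (lin x) ↔
      (y * t' * y⁻¹ = t' ∨ y * t' * y⁻¹ = t'⁻¹) := by
  have hd := dt_of h hF f
  have tR : Rot3 Q (glEquiv ι F t) (fx (lin x)) := rotG h hF f h.t_mem t3 h.t_fix h.t_ne
  have cR := tR.conj (Y := glEquiv ι F (inc ⇑Q y)) fun v => by rw [ge_eq, q_lin (inc_mem y)]
  have e : glEquiv ι F (inc ⇑Q (y * t' * y⁻¹)) = glEquiv ι F (inc ⇑Q y) * glEquiv ι F t * (glEquiv ι F (inc ⇑Q y))⁻¹ := by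
    rw [map_mul, map_mul, map_inv, map_mul, map_mul, map_inv, ht']
  have e2 : (fx (lin x)).map (lin (inc ⇑Q y)) =
      (fx (lin x)).map (glEquiv ι F (inc ⇑Q y) : (ι → F) →ₗ[F] (ι → F)) := by
    congr 1
  rw [e2]
  constructor
  · intro h1
    rw [h1] at cR
    rcases hd.rot_cases tR cR with h2 | h2
    · left
      apply inc_inj (f := ⇑Q)
      apply ge_inj
      rw [e, h2, ht']
    · right
      apply inc_inj (f := ⇑Q)
      apply ge_inj
      rw [e, h2, map_inv, map_inv, ht']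
  · rintro (h1 | h1)
    · rw [← e, h1, ht'] at cR
      exact cR.plane_eq tR
    · rw [← e, h1, map_inv, map_inv, ht'] at cR
      exact cR.plane_eq tR.symm

/-- an automorphism which normalises an `A₁₀` through `x`, `t` preserves the class of the stabiliser of `W` -/
theorem conj_of_T {J : Module.End F (ι → F)} {c d : F} (f : Fj Q x t J c d) {K₁ : Subgroup (POmega F ⇑Q)}
    (m₁ : ∀ y : Omega F ⇑Q, pj Q y ∈ K₁ ↔ (fx (lin x)).map (lin (inc ⇑Q y)) = fx (lin x))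
    (a : MulAut (POmega F ⇑Q)) {x' t' : Omega F ⇑Q} (hx' : inc ⇑Q x' = x) (ht' : inc ⇑Q t' = t)
    {K : Subgroup (POmega F ⇑Q)} (hT : T10 K) (hxK : pj Q x' ∈ K) (htK : pj Q t' ∈ K) (haK : a • K = K) :
    ∃ y : POmega F ⇑Q, a • K₁ = H424.Spr.c y • K₁ := by
  have mem : ∀ {k : POmega F ⇑Q}, k ∈ K → a k ∈ K := by
    intro k hk
    rw [← haK]
    exact H424.Spr.mem_smul a hk
  have c1 : pj Q t' * pj Q x' = pj Q x' * pj Q t' := by
    rw [← map_mul, ← map_mul]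
    congr 1
    apply inc_inj
    rw [map_mul, map_mul, ht', hx', comm_xt h hF t3]
  have c2 : a (pj Q t') * a (pj Q x') = a (pj Q x') * a (pj Q t') := by rw [← map_mul, c1, map_mul]
  obtain ⟨⟨r, hr⟩, hrt⟩ := hT.conj3 (x := ⟨pj Q x', hxK⟩) (t := ⟨pj Q t', htK⟩) (x' := ⟨_, mem hxK⟩)
    (t' := ⟨_, mem htK⟩) (by rw [Subgroup.orderOf_mk]; exact ord_x h hF t3 hx')
    (by rw [Subgroup.orderOf_mk]; exact ord_t h hF t3 ht') (Subtype.ext c1)
    (by rw [Subgroup.orderOf_mk]; exact (MulEquiv.orderOf_eq a _).trans (ord_x h hF t3 hx'))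
    (by rw [Subgroup.orderOf_mk]; exact (MulEquiv.orderOf_eq a _).trans (ord_t h hF t3 ht')) (Subtype.ext c2)
  have hrt' : r * pj Q t' * r⁻¹ = a (pj Q t') := congrArg Subtype.val hrt
  -- `K₁` is the normaliser of `⟨t⟩`
  have char : ∀ y : POmega F ⇑Q, y ∈ K₁ ↔ (y * pj Q t' * y⁻¹ = pj Q t' ∨ y * pj Q t' * y⁻¹ = (pj Q t')⁻¹) := by
    intro y
    obtain ⟨z, rfl⟩ := QuotientGroup.mk'_surjective _ y
    change pj Q z ∈ K₁ ↔ (pj Q z * pj Q t' * (pj Q z)⁻¹ = pj Q t' ∨ pj Q z * pj Q t' * (pj Q z)⁻¹ = (pj Q t')⁻¹)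
    rw [m₁, stab_iff h hF t3 f ht', ← map_inv, ← map_inv, ← map_mul, ← map_mul]
    have i1 : (inc ⇑Q (z * t' * z⁻¹)) ^ 3 = 1 := by
      rw [map_mul, map_mul, map_inv, conj_pow, ht', t3, mul_one, mul_inv_cancel]
    have i2 : (inc ⇑Q t') ^ 3 = 1 := by rw [ht', t3]
    have i3 : (inc ⇑Q t'⁻¹) ^ 3 = 1 := by rw [map_inv, inv_pow, i2, inv_one]
    constructor
    · rintro (h1 | h1)
      · left; rw [h1]
      · right; rw [h1]
    · rintro (h1 | h1)
      · left; exact eq_of_pj h.good i1 i2 h1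
      · right; exact eq_of_pj h.good i1 i3 h1
  refine ⟨r, ?_⟩
  ext y
  rw [Subgroup.mem_pointwise_smul_iff_inv_smul_mem, Subgroup.mem_pointwise_smul_iff_inv_smul_mem, ← map_inv]
  change a⁻¹ y ∈ K₁ ↔ r⁻¹ * y * r⁻¹⁻¹ ∈ K₁
  rw [char, char]
  have k1 : ∀ w, a⁻¹ y * pj Q t' * (a⁻¹ y)⁻¹ = w ↔ y * a (pj Q t') * y⁻¹ = a w := by
    intro w
    rw [← a.injective.eq_iff, map_mul, map_mul, map_inv, MulAut.apply_inv_self]
  have k2 : ∀ w, r⁻¹ * y * r⁻¹⁻¹ * pj Q t' * (r⁻¹ * y * r⁻¹⁻¹)⁻¹ = w ↔ y * (r * pj Q t' * r⁻¹) * y⁻¹ = r * w * r⁻¹ := by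
    intro w
    constructor
    · rintro rfl
      group
    · intro h1
      have : w = r⁻¹ * (r * w * r⁻¹) * r := by group
      rw [this, ← h1]
      group
  rw [k1, k1, k2, k2, map_inv, hrt']
  have : r * (pj Q t')⁻¹ * r⁻¹ = (a (pj Q t'))⁻¹ := by rw [← hrt']; group
  rw [this]

end end_game

end Cfsg.Agent.H9.O5
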