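import Cfsg.Agent.H9.O5.Mid

/-!
# S3938, `PΩ⁺₈(5)`: the end game in the quotient (helper9)
-/

set_option autoImplicit false
set_option linter.unusedSectionVars false

namespace Cfsg.Agent.H9.O5

open Module QuadraticMap Cfsg Cfsg.Geo
open Cfsg.Agent.LieClassical.OrthCore Cfsg.Agent.LieClassical.OrthFinite
open Cfsg.Agent.H951 (fx cm mem_fx mem_cm)
open Cfsg.Agent.H884.El (lin)
open Cfsg.Agent.H424.O8L
open scoped MatrixGroups Matrix Pointwise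

variable {ι : Type} [Fintype ι] [DecidableEq ι] {F : Type} [Field F] [Fintype F] {Q : QuadraticForm F (ι → F)}

/-- the quotient map -/
abbrev mkO (f₀ : (ι → F) → F) : Omega F f₀ →* POmega F f₀ := QuotientGroup.mk' (Subgroup.center (Omega F f₀))

theorem midF {f₀ : (ι → F) → F} (hf : f₀ = ⇑Q) {x t : GL ι F} (h : Cf Q x t 7) (hF : Nat.card F = 5) (t3 : t ^ 3 = 1)
    {J J' : Module.End F (ι → F)} {c d : F} (g : Fj Q x t J c d) (g' : Fj Q x t J' c d)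
    {H₁ H₂ H₃ : Subgroup (GL ι F)}
    (m₁ : ∀ y : GL ι F, y ∈ H₁ ↔ (fx (lin x)).map (lin y) = fx (lin x)) (m₂ : ∀ y : GL ι F, y ∈ H₂ ↔ Sm J c y)
    (m₃ : ∀ y : GL ι F, y ∈ H₃ ↔ Sm J' c y) (a : MulAut (POmega F f₀)) {x' t' : Omega F f₀}
    (hx' : inc f₀ x' = x) (ht' : inc f₀ t' = t)
    (h1 : ∃ y : POmega F f₀, a • tpQ f₀ H₁ = H424.Spr.c y • tpQ f₀ H₁) (hne : a • tpQ f₀ H₁ ≠ tpQ f₀ H₁) :
    ∃ y ∈ tpQ f₀ H₁, a • (H424.Spr.c y • tpQ f₀ H₂) ≠ H424.Spr.c y • tpQ f₀ H₂ ∧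
      a • (H424.Spr.c y • tpQ f₀ H₃) ≠ H424.Spr.c y • tpQ f₀ H₃ ∧
      ∀ K : Subgroup (POmega F f₀), T10 K → H424.Spr.c y (mkO f₀ x') ∈ K → H424.Spr.c y (mkO f₀ t') ∈ K →
        a • K ≠ K := by
  subst hf
  exact mid h hF t3 g g'
    (fun y => (mem_tpQ h.good ((m₁ _).2 (neg_mem_stab _))).trans (m₁ _))
    (fun y => (mem_tpQ h.good ((m₂ _).2 (neg_Sm _ _))).trans (m₂ _))
    (fun y => (mem_tpQ h.good ((m₃ _).2 (neg_Sm _ _))).trans (m₃ _)) a hx' ht' h1 hne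

theorem conj_of_TF {f₀ : (ι → F) → F} (hf : f₀ = ⇑Q) {x t : GL ι F} (h : Cf Q x t 7) (hF : Nat.card F = 5)
    (t3 : t ^ 3 = 1) {J : Module.End F (ι → F)} {c d : F} (g : Fj Q x t J c d) {H₁ : Subgroup (GL ι F)}
    (m₁ : ∀ y : GL ι F, y ∈ H₁ ↔ (fx (lin x)).map (lin y) = fx (lin x)) (a : MulAut (POmega F f₀))
    {x' t' : Omega F f₀} (hx' : inc f₀ x' = x) (ht' : inc f₀ t' = t) {K : Subgroup (POmega F f₀)} (hT : T10 K)
    (hxK : mkO f₀ x' ∈ K) (htK : mkO f₀ t' ∈ K) (haK : a • K = K) :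
    ∃ y : POmega F f₀, a • tpQ f₀ H₁ = H424.Spr.c y • tpQ f₀ H₁ := by
  subst hf
  exact conj_of_T h hF t3 g (fun y => (mem_tpQ h.good ((m₁ _).2 (neg_mem_stab _))).trans (m₁ _)) a hx' ht' hT hxK htK haK

end Cfsg.Agent.H9.O5
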