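import Cfsg.Agent.ClassicalGeometry.OmegaIndex
import Cfsg.Agent.H424.Spr.O8.Hh
import Cfsg.Agent.H9.O5.Rot2

/-!
# S3938, `PΩ⁺₈(5)`: isometries modulo `Ω` (helper9)
-/

set_option autoImplicit false
set_option linter.unusedSectionVars false

namespace Cfsg.Agent.H9.O5

open Module QuadraticMap Cfsg Cfsg.Geo
open Cfsg.Agent.LieClassical.OrthCore Cfsg.Agent.LieClassical.OrthFinite
open Cfsg.Agent.ClassicalGeometry.Reflection
open Cfsg.Agent.H424.O8L (inc exists_val)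
open scoped MatrixGroups Matrix

variable {ι : Type} [Fintype ι] [DecidableEq ι] {F : Type} [Field F] [Fintype F] {Q : QuadraticForm F (ι → F)}
  {X : (ι → F) ≃ₗ[F] (ι → F)} {W U : Submodule F (ι → F)}

theorem not_sq_two (h : Nat.card F = 5) : ¬ IsSquare (2 : F) := by
  obtain ⟨e⟩ := exists_e h
  rintro ⟨r, hr⟩
  have h1 := congrArg e hr
  rw [map_mul, map_ofNat] at h1
  exact (by decide : ∀ r : ZMod 5, (2 : ZMod 5) ≠ r * r) _ h1

/-- the equivalence of an isometry -/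
noncomputable def isoOf (R : (ι → F) ≃ₗ[F] (ι → F)) (hR : ∀ v, Q (R v) = Q v) : isometryGroup F ⇑Q :=
  ⟨(glEquiv ι F).symm R, (Cfsg.Agent.ClassicalGeometry.Reflection.mem_isometryGroup_iff _ _).2 fun v => by
    rw [← glEquiv_apply, MulEquiv.apply_symm_apply]
    exact hR v⟩

theorem ge_isoOf (R : (ι → F) ≃ₗ[F] (ι → F)) (hR : ∀ v, Q (R v) = Q v) :
    glEquiv ι F (isoOf R hR : GL ι F) = R := (glEquiv ι F).apply_symm_apply R

/-- **isometries modulo `Ω`** -/
theorem split (h : Dt Q X W U) {R : (ι → F) ≃ₗ[F] (ι → F)} (hR : ∀ v, Q (R v) = Q v) :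
    ∃ (y : Omega F ⇑Q) (S : (ι → F) ≃ₗ[F] (ι → F)), (∀ v, Q (S v) = Q v) ∧ (∀ u ∈ U, S u = u) ∧
      glEquiv ι F (inc ⇑Q y) = R * S := by
  have han : ∀ w ∈ W, w ≠ 0 → Q w ≠ 0 := fun w hw h0 h1 => h0 (h.aniso w hw h1)
  obtain ⟨v, hv, hQv⟩ := exists_val (Q := Q) h.dimW han 1
  obtain ⟨w, hw, hQw⟩ := exists_val (Q := Q) h.dimW han 2
  have hv0 : Q v ≠ 0 := by rw [hQv]; exact one_ne_zero
  have hw0 : Q w ≠ 0 := by rw [hQw]; exact two_ne h.card
  have refl : ∀ {v : ι → F} (_ : v ∈ W) (hv0 : Q v ≠ 0), ∀ u ∈ U,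
      glEquiv ι F (reflIso Q v hv0 : GL ι F) u = u := by
    intro v hv hv0 u hu
    rw [glEquiv_apply, coe_reflIso]
    exact reflectionMatrix_mulVec_of_polar_eq_zero Q v u (h.perp v hv u hu)
  have iso : ∀ g : isometryGroup F ⇑Q, ∀ v, Q (glEquiv ι F (g : GL ι F) v) = Q v := by
    intro g v
    rw [glEquiv_apply]
    exact (Cfsg.Agent.ClassicalGeometry.Reflection.mem_isometryGroup_iff _ _).1 g.2 v
  -- it is enough to have the same class in the abelianization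
  have key : ∀ g : isometryGroup F ⇑Q, (∀ u ∈ U, glEquiv ι F (g : GL ι F) u = u) →
      Abelianization.of (isoOf R hR) = Abelianization.of g → ∃ (y : Omega F ⇑Q) (S : (ι → F) ≃ₗ[F] (ι → F)),
        (∀ v, Q (S v) = Q v) ∧ (∀ u ∈ U, S u = u) ∧ glEquiv ι F (inc ⇑Q y) = R * S := by
    intro g hg hab
    have h1 : isoOf R hR * g⁻¹ ∈ Omega F ⇑Q := by
      have h2 : Abelianization.of (isoOf R hR * g⁻¹) = 1 := by rw [map_mul, map_inv, hab, mul_inv_cancel]
      have h3 : isoOf R hR * g⁻¹ ∈ (Abelianization.of (G := isometryGroup F ⇑Q)).ker := h2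
      rwa [Abelianization.ker_of] at h3
    refine ⟨⟨_, h1⟩, glEquiv ι F ((g⁻¹ : isometryGroup F ⇑Q) : GL ι F), iso _, fun u hu => ?_, ?_⟩
    · have h2 : glEquiv ι F ((g⁻¹ : isometryGroup F ⇑Q) : GL ι F) = (glEquiv ι F (g : GL ι F))⁻¹ := by
        rw [← map_inv]
        rfl
      rw [h2]
      change (glEquiv ι F (g : GL ι F)).symm u = u
      rw [LinearEquiv.symm_apply_eq, hg u hu]
    · change glEquiv ι F ((isoOf R hR : GL ι F) * ((g⁻¹ : isometryGroup F ⇑Q) : GL ι F)) = _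
      rw [map_mul, ge_isoOf]
  rcases Cfsg.Agent.ClassicalGeometry.OmegaIndex.abelianization_cases (two_ne h.card) Q h.nd (c := 1) one_ne_zero v w
    hv0 hw0 (by rw [hQv, mul_one]; exact ⟨1, by ring⟩) (by rw [hQw, one_mul]; exact not_sq_two h.card)
    (Abelianization.of (isoOf R hR)) with h1 | h1 | h1 | h1
  · exact key 1 (fun u _ => by
      have : glEquiv ι F ((1 : isometryGroup F ⇑Q) : GL ι F) = 1 := map_one _
      rw [this]
      rfl) (by rw [h1, map_one])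
  · exact key _ (refl hv hv0) h1
  · exact key _ (refl hw hw0) h1
  · refine key (reflIso Q v hv0 * reflIso Q w hw0) (fun u hu => ?_) (by rw [h1, map_mul])
    change glEquiv ι F ((reflIso Q v hv0 : GL ι F) * (reflIso Q w hw0 : GL ι F)) u = u
    rw [map_mul, LinearEquiv.mul_apply, refl hw hw0 u hu, refl hv hv0 u hu]

end Cfsg.Agent.H9.O5
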